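import Cfsg.Agent.Lib.Helper35.ONNOrd.X0.Data

set_option Elab.async false

namespace Cfsg.Agent.Lib.Helper35.ONNOrd.X0

open Cfsg.Agent.Lib.Helper35

theorem q0c0 : allBelow (fun k => fq0 (Nat.add 0 k)) 57 = true := by decide +kernel
theorem q0u0 : ∀ i, i < 57 → fq0 i = true := below_step fq0 0 57 57 (below_zero fq0) q0c0 rfl
theorem m0z : countBelow fm0 0 = 0 := rfl
theorem m0k0 : countBelow (fun k => fm0 (Nat.add 0 k)) 57 = 57 := by decide +kernel
theorem m0n0 : countBelow fm0 57 = 57 := countBelow_step fm0 0 57 57 0 57 57 m0z m0k0 rfl rfl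
theorem q1c0 : allBelow (fun k => fq1 (Nat.add 0 k)) 57 = true := by decide +kernel
theorem q1u0 : ∀ i, i < 57 → fq1 i = true := below_step fq1 0 57 57 (below_zero fq1) q1c0 rfl
theorem m1z : countBelow fm1 0 = 0 := rfl
theorem m1k0 : countBelow (fun k => fm1 (Nat.add 0 k)) 57 = 56 := by decide +kernel
theorem m1n0 : countBelow fm1 57 = 56 := countBelow_step fm1 0 57 57 0 56 56 m1z m1k0 rfl rfl
theorem q2c0 : allBelow (fun k => fq2 (Nat.add 0 k)) 57 = true := by decide +kernel
theorem q2u0 : ∀ i, i < 57 → fq2 i = true := below_step fq2 0 57 57 (below_zero fq2) q2c0 rfl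
theorem m2z : countBelow fm2 0 = 0 := rfl
theorem m2k0 : countBelow (fun k => fm2 (Nat.add 0 k)) 57 = 49 := by decide +kernel
theorem m2n0 : countBelow fm2 57 = 49 := countBelow_step fm2 0 57 57 0 49 49 m2z m2k0 rfl rfl
theorem q3c0 : allBelow (fun k => fq3 (Nat.add 0 k)) 57 = true := by decide +kernel
theorem q3u0 : ∀ i, i < 57 → fq3 i = true := below_step fq3 0 57 57 (below_zero fq3) q3c0 rfl
theorem m3z : countBelow fm3 0 = 0 := rfl
theorem m3k0 : countBelow (fun k => fm3 (Nat.add 0 k)) 57 = 12 := by decide +kernel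
theorem m3n0 : countBelow fm3 57 = 12 := countBelow_step fm3 0 57 57 0 12 12 m3z m3k0 rfl rfl
theorem y0c0 : allBelow (fun k => fy0 (Nat.add 0 k)) 57 = true := by decide +kernel
theorem y0u0 : ∀ i, i < 57 → fy0 i = true := below_step fy0 0 57 57 (below_zero fy0) y0c0 rfl

end Cfsg.Agent.Lib.Helper35.ONNOrd.X0
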